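import Mathlib
import Cfsg.Prelude.Def_CaseTheorems
import Cfsg.Prelude.Def_Solvable
import Cfsg.Prelude.Def_Transfer
import Cfsg.Agent.Helper10.R3d
import Cfsg.Agent.Helper10.PCore
import Cfsg.Agent.Helper10.SylowAux

set_option autoImplicit false

namespace Cfsg.Agent.Helper10.R3

variable {X : Type*} [Group X]

theorem normal_iff (N : Subgroup X) (hN : N.Normal) (a x : X) : x ∈ N ↔ a * x * a⁻¹ ∈ N := by
  constructor
  · intro hx; exact hN.conj_mem x hx a
  · intro hx
    have h1 := hN.conj_mem _ hx a⁻¹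
    have e : a⁻¹ * (a * x * a⁻¹) * a⁻¹⁻¹ = x := by group
    rwa [e] at h1

theorem e8_of_big [Finite X] (A : Subgroup X) (hc : ∀ a ∈ A, ∀ b ∈ A, a * b = b * a)
    (h2 : ∀ a ∈ A, a * a = 1) (hcard : 4 < Nat.card A) :
    ∃ E : Subgroup X, Cfsg.IsElementaryAbelian 2 E ∧ Nat.card E = 8 := by
  haveI : Fact (Nat.Prime 2) := ⟨Nat.prime_two⟩
  have hA : IsPGroup 2 A := by
    intro g
    refine ⟨1, ?_⟩
    apply Subtype.ext
    have hg := h2 g g.2
    simpa [pow_two] using hg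
  obtain ⟨k, hk⟩ := IsPGroup.iff_card.1 hA
  have hk3 : 3 ≤ k := by
    by_contra hlt
    push_neg at hlt
    rw [hk] at hcard
    interval_cases k <;> norm_num at hcard
  obtain ⟨K, hK⟩ := Sylow.exists_subgroup_card_pow_prime (G := A) 2 (n := 3)
    (by rw [hk]; exact pow_dvd_pow 2 hk3)
  have hKA : K.map A.subtype ≤ A := Subgroup.map_subtype_le K
  refine ⟨K.map A.subtype, ?_, ?_⟩
  · unfold Cfsg.IsElementaryAbelian
    constructor
    · exact ⟨⟨fun x y => Subtype.ext (hc _ (hKA x.2) _ (hKA y.2))⟩⟩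
    · intro a ha
      rw [pow_two]; exact h2 a (hKA ha)
  · rw [Subgroup.card_map_of_injective (Subgroup.subtype_injective A), hK]; norm_num

theorem hrank_of_big
    (big : ∀ A : Subgroup X, (∀ a ∈ A, ∀ b ∈ A, a * b = b * a) → (∀ a ∈ A, a * a = 1) →
      Nat.card A ≤ 4)
    (V : Subgroup X) (hV : IsMulCommutative V) : Cfsg.PRankLE 2 2 V := by
  intro A _ h2
  obtain ⟨⟨hc⟩⟩ := hV
  have hcard : Nat.card (A.map V.subtype) = Nat.card A :=
    Subgroup.card_map_of_injective (Subgroup.subtype_injective V)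
  have hle := big (A.map V.subtype)
    (by
      intro a ha b hb
      obtain ⟨a', _, rfl⟩ := Subgroup.mem_map.1 ha
      obtain ⟨b', _, rfl⟩ := Subgroup.mem_map.1 hb
      exact congrArg Subtype.val (hc a' b'))
    (by
      intro a ha
      obtain ⟨a', ha', rfl⟩ := Subgroup.mem_map.1 ha
      have h' := congrArg Subtype.val (h2 a' ha')
      simpa [pow_two] using h')
  rw [hcard] at hle
  calc Nat.card A ≤ 4 := hle
    _ = 2 ^ 2 := by norm_num

theorem exists_central [Finite X] (p : ℕ) [hp : Fact p.Prime] (P : Subgroup X)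
    (hP : IsPGroup p P) (hPne : P ≠ ⊥) :
    ∃ z ∈ P, z ≠ 1 ∧ z ^ p = 1 ∧ ∀ x ∈ P, x * z = z * x := by
  haveI : Nontrivial P := (Subgroup.nontrivial_iff_ne_bot P).2 hPne
  haveI : Nontrivial (Subgroup.center P) := hP.center_nontrivial
  have hZ : IsPGroup p (Subgroup.center P) := hP.to_subgroup _
  have hdvd : p ∣ Nat.card (Subgroup.center P) := by
    rcases hZ.card_eq_or_dvd with h | h
    · exfalso
      have := Finite.one_lt_card (α := Subgroup.center P)
      omega
    · exact h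
  obtain ⟨z, hz⟩ := exists_prime_orderOf_dvd_card' p hdvd
  refine ⟨((z : P) : X), (z : P).2, ?_, ?_, ?_⟩
  · intro h
    have hz1 : z = 1 := by
      apply Subtype.ext; apply Subtype.ext; simpa using h
    rw [hz1, orderOf_one] at hz
    exact absurd hz hp.out.one_lt.ne
  · have hpow := pow_orderOf_eq_one z
    rw [hz] at hpow
    have h' := congrArg (fun w : Subgroup.center P => ((w : P) : X)) hpow
    simpa using h'
  · intro x hx
    have hcz := Subgroup.mem_center_iff.1 z.2 ⟨x, hx⟩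
    exact congrArg Subtype.val hcz

theorem card4 [Finite X] (W : Subgroup X) (hle : Nat.card W ≤ 4) (w₀ w₁ : X)
    (h0 : w₀ ∈ W) (h02 : w₀ * w₀ = 1) (h01 : w₀ ≠ 1) (h1 : w₁ ∈ W) (h11 : w₁ ≠ 1)
    (h10 : w₁ ≠ w₀) : Nat.card W = 4 := by
  have hHW : Subgroup.zpowers w₀ ≤ W := by rw [Subgroup.zpowers_le]; exact h0
  have hHc := CW2.card_zp w₀ h02 h01
  have hdv := Subgroup.card_dvd_of_le hHW
  rw [hHc] at hdv
  have hne2 : Nat.card W ≠ 2 := by
    intro h
    have hEq := Subgroup.eq_of_le_of_card_ge hHW (by rw [h, hHc])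
    have hmem : w₁ ∈ Subgroup.zpowers w₀ := by rw [hEq]; exact h1
    rcases CW2.mem_zp w₀ h02 w₁ hmem with h | h
    · exact h11 h
    · exact h10 h
  have hpos : 0 < Nat.card W := Nat.card_pos
  omega

theorem adjoin_mem [Finite X]
    (big : ∀ A : Subgroup X, (∀ a ∈ A, ∀ b ∈ A, a * b = b * a) → (∀ a ∈ A, a * a = 1) →
      Nat.card A ≤ 4)
    (V : Subgroup X) (hVc : ∀ a ∈ V, ∀ b ∈ V, a * b = b * a) (hV2 : ∀ a ∈ V, a * a = 1)
    (hV4 : Nat.card V = 4) (t : X) (ht2 : t * t = 1) (htc : ∀ a ∈ V, a * t = t * a) :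
    t ∈ V := by
  have hc : ∀ a ∈ ((V : Set X) ∪ {t}), ∀ b ∈ ((V : Set X) ∪ {t}), a * b = b * a := by
    rintro a (ha | ha) b (hb | hb)
    · exact hVc a ha b hb
    · rw [Set.mem_singleton_iff.1 hb]; exact htc a ha
    · rw [Set.mem_singleton_iff.1 ha]; exact (htc b hb).symm
    · rw [Set.mem_singleton_iff.1 ha, Set.mem_singleton_iff.1 hb]
  have h2 : ∀ a ∈ ((V : Set X) ∪ {t}), a * a = 1 := by
    rintro a (ha | ha)
    · exact hV2 a ha
    · rw [Set.mem_singleton_iff.1 ha]; exact ht2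
  have hle := big (Subgroup.closure ((V : Set X) ∪ {t})) (clos_comm _ hc) (clos_sq _ hc h2)
  have hVA : V ≤ Subgroup.closure ((V : Set X) ∪ {t}) :=
    fun v hv => Subgroup.subset_closure (Set.mem_union_left _ hv)
  have hEq := Subgroup.eq_of_le_of_card_ge hVA (by rw [hV4]; exact hle)
  have htA : t ∈ Subgroup.closure ((V : Set X) ∪ {t}) :=
    Subgroup.subset_closure (Set.mem_union_right _ (Set.mem_singleton t))
  rw [← hEq] at htA
  exact htA

theorem odd_fix (a f : X) (N : ℕ) (hN : a ^ N = 1) (hodd : N % 2 = 1)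
    (h2 : a * (a * f * a⁻¹) * a⁻¹ = f) : a * f * a⁻¹ = f := by
  have hc2 : Commute (a ^ 2) f := by
    show a ^ 2 * f = f * a ^ 2
    calc a ^ 2 * f = (a * (a * f * a⁻¹) * a⁻¹) * a ^ 2 := by
          simp [pow_succ, mul_assoc]
      _ = f * a ^ 2 := by rw [h2]
  have hm : 2 * ((N + 1) / 2) = N + 1 := by omega
  have ha : a = (a ^ 2) ^ ((N + 1) / 2) := by
    rw [← pow_mul, hm, pow_succ, hN, one_mul]
  have hc : Commute a f := by rw [ha]; exact hc2.pow_left _
  rw [hc.eq]; exact mul_inv_cancel_right _ _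

theorem dich [Finite X] (E : Subgroup X) (hE2 : ∀ e ∈ E, e * e = 1) (hE4 : Nat.card E = 4)
    (a : X) (haE : ∀ x ∈ E, a * x * a⁻¹ ∈ E) (N : ℕ) (hN : a ^ N = 1) (hodd : N % 2 = 1)
    (e : X) (he : e ∈ E) (he1 : e ≠ 1) (hfix : a * e * a⁻¹ = e) :
    ∀ f ∈ E, a * f * a⁻¹ = f := by
  intro f hf
  by_cases hf1 : f = 1
  · rw [hf1]; group
  by_cases hfe : f = e
  · rw [hfe]; exact hfix
  rcases enum4 E hE2 hE4 e he he1 f hf hf1 hfe (a * f * a⁻¹) (haE f hf) with h | h | h | h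
  · exfalso; apply hf1
    have e1 : f = a⁻¹ * (a * f * a⁻¹) * a := by group
    rw [e1, h]; group
  · exfalso; apply hfe
    have e3 : a⁻¹ * e * a = e := by
      calc a⁻¹ * e * a = a⁻¹ * (a * e * a⁻¹) * a := by rw [hfix]
        _ = e := by group
    calc f = a⁻¹ * (a * f * a⁻¹) * a := by group
      _ = a⁻¹ * e * a := by rw [h]
      _ = e := e3
  · exact h
  · apply odd_fix a f N hN hodd
    rw [h]
    calc a * (e * f) * a⁻¹ = (a * e * a⁻¹) * (a * f * a⁻¹) := by group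
      _ = e * (e * f) := by rw [hfix, h]
      _ = (e * e) * f := by group
      _ = f := by rw [hE2 e he, one_mul]

theorem finish {G : Type*} [Group G] [Finite G] (Q : Subgroup G) (hQ : IsPGroup 2 Q)
    (hnorm : ∀ a x : G, x ∈ Q ↔ a * x * a⁻¹ ∈ Q)
    (hchar : Subgroup.centralizer (Q : Set G) ≤ Q)
    (hrank : ∀ V : Subgroup G, V ≤ Q → IsMulCommutative V → Cfsg.PRankLE 2 2 V)
    (hE4 : Nat.card (omegaZ Q) = 4)
    (u dd : G) (hu1 : u ≠ 1) (hu3 : u ^ 3 = 1) (huE : ∀ e ∈ omegaZ Q, u * e * u⁻¹ = e)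
    (n : ℕ) (hdd : orderOf dd = 3 ^ n) (hddE : ∀ e ∈ omegaZ Q, dd * e * dd⁻¹ = e → e = 1)
    (hudd : u * dd = dd * u) : False := by
  have hfpfQ : ∀ x ∈ Q, dd * x * dd⁻¹ = x → x = 1 := by
    intro x hx hfix
    by_contra hx1
    obtain ⟨m, hm⟩ := hQ ⟨x, hx⟩
    have hm' : x ^ (2 ^ m) = 1 := by
      have hv := congrArg Subtype.val hm
      simpa using hv
    obtain ⟨k, hk1, hk2⟩ := invol_pow x m hx1 hm'
    have hyE : x ^ k ∈ omegaZ Q := inv_in Q hrank hE4 _ (Subgroup.pow_mem _ hx _) hk2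
    have hcx : Commute dd x := by
      show dd * x = x * dd
      calc dd * x = (dd * x * dd⁻¹) * dd := (inv_mul_cancel_right _ _).symm
        _ = x * dd := by rw [hfix]
    have hcy : Commute dd (x ^ k) := hcx.pow_right k
    exact hk1 (hddE _ hyE (by rw [hcy.eq]; exact mul_inv_cancel_right _ _))
  obtain ⟨e₀, he₀, he₀1⟩ : ∃ e ∈ omegaZ Q, e ≠ 1 := by
    by_contra hcon
    push_neg at hcon
    have hbot : omegaZ Q = ⊥ := (Subgroup.eq_bot_iff_forall _).2 hcon
    rw [hbot] at hE4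
    simp at hE4
  have hdd3 : dd ^ 3 = 1 := by
    rcases Nat.lt_or_ge n 2 with hn | hn
    · interval_cases n
      · exfalso
        have h1 : dd = 1 := orderOf_eq_one_iff.1 (by simpa using hdd)
        apply he₀1
        apply hddE e₀ he₀
        rw [h1]; group
      · have hpow := pow_orderOf_eq_one dd
        rw [hdd] at hpow
        simpa using hpow
    · exfalso
      obtain ⟨m, rfl⟩ : ∃ m, n = m + 2 := ⟨n - 2, by omega⟩
      refine final dd m hdd Q hQ (Subgroup.mem_normalizer_iff.2 (hnorm dd)) ?_ ?_ hrank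
      · rw [Subgroup.eq_bot_iff_forall]
        intro x hx
        have hx1 : x ∈ Subgroup.zpowers dd := (Subgroup.mem_inf.1 hx).1
        have hx2 : x ∈ Q := hchar (Subgroup.mem_inf.1 hx).2
        obtain ⟨k, hk⟩ := hQ ⟨x, hx2⟩
        have hk' : x ^ (2 ^ k) = 1 := by
          have hv := congrArg Subtype.val hk
          simpa using hv
        have h1 : orderOf x ∣ 2 ^ k := orderOf_dvd_of_pow_eq_one hk'
        have h2 : orderOf x ∣ 3 ^ (m + 2) := by
          rw [← hdd]; exact orderOf_dvd_of_mem_zpowers hx1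
        have h4 : orderOf x ∣ Nat.gcd (2 ^ k) (3 ^ (m + 2)) := Nat.dvd_gcd h1 h2
        have hc : Nat.gcd (2 ^ k) (3 ^ (m + 2)) = 1 := Nat.Coprime.pow k (m + 2) (by norm_num)
        rw [hc, Nat.dvd_one] at h4
        exact orderOf_eq_one_iff.1 h4
      · rw [Subgroup.eq_bot_iff_forall]
        intro x hx
        have hx1 : x ∈ Q := (Subgroup.mem_inf.1 hx).1
        have hx2 := Subgroup.mem_centralizer_iff.1 (Subgroup.mem_inf.1 hx).2 dd
          (Set.mem_singleton _)
        exact hfpfQ x hx1 (by rw [hx2]; exact mul_inv_cancel_right _ _)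
  have hall := main2 Q hQ hrank dd u (hnorm dd) (hnorm u) hE4 hddE huE hudd hu3 hdd3
  have huQ : u ∈ Q := by
    apply hchar
    rw [Subgroup.mem_centralizer_iff]
    intro x hx
    calc x * u = (u * x * u⁻¹) * u := by rw [hall x hx]
      _ = u * x := inv_mul_cancel_right _ _
  exact hu1 (two_three Q hQ u huQ (by rw [← pow_three']; exact hu3))

end Cfsg.Agent.Helper10.R3
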