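import Mathlib
import Cfsg.Prelude.Def_CaseTheorems
import Cfsg.Prelude.Def_Solvable
import Cfsg.Prelude.Def_Transfer
import Cfsg.Agent.Helper10.R3e

set_option autoImplicit false

namespace Cfsg.Agent.Helper10.R3

theorem s3739 {G : Type*} [Group G] [Finite G]
    (hchar : Subgroup.centralizer (Cfsg.pCore 2 G : Set G) ≤ Cfsg.pCore 2 G)
    (hsix : ∃ g : G, orderOf g = 6) (d : G) (hd1 : d ≠ 1)
    (hd : IsPGroup 3 ↥(Subgroup.zpowers d)) (W : Subgroup G)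
    (hW : Cfsg.IsElementaryAbelian 2 W) (hW1 : W ≠ ⊥)
    (hdW : d ∈ Subgroup.normalizer (W : Set G))
    (hfpf : W ⊓ Subgroup.centralizer {d} = ⊥) :
    ∃ E : Subgroup G, Cfsg.IsElementaryAbelian 2 E ∧ Nat.card E = 8 := by
  by_contra hno
  haveI : Fact (Nat.Prime 2) := ⟨Nat.prime_two⟩
  haveI : Fact (Nat.Prime 3) := ⟨Nat.prime_three⟩
  have big : ∀ A : Subgroup G, (∀ a ∈ A, ∀ b ∈ A, a * b = b * a) → (∀ a ∈ A, a * a = 1) →
      Nat.card A ≤ 4 := by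
    intro A hc h2
    by_contra hlt
    exact hno (e8_of_big A hc h2 (by omega))
  obtain ⟨Q, hQdef⟩ : ∃ Q : Subgroup G, Q = Cfsg.pCore 2 G := ⟨_, rfl⟩
  rw [← hQdef] at hchar
  have hQ : IsPGroup 2 Q := by rw [hQdef]; exact Cfsg.Agent.Helper10.pCore_isPGroup 2 G
  have hQn : Q.Normal := by rw [hQdef]; exact Cfsg.Agent.Helper10.pCore_normal 2 G
  have hnorm : ∀ a x : G, x ∈ Q ↔ a * x * a⁻¹ ∈ Q := fun a x => normal_iff Q hQn a x
  have hrank : ∀ V : Subgroup G, V ≤ Q → IsMulCommutative V → Cfsg.PRankLE 2 2 V :=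
    fun V _ hV => hrank_of_big big V hV
  have hEc : ∀ a ∈ omegaZ Q, ∀ b ∈ omegaZ Q, a * b = b * a := fun a ha b hb => hb.2.2 a ha.1
  have hE2 : ∀ a ∈ omegaZ Q, a * a = 1 := fun a ha => ha.2.1
  have hEn : ∀ a : G, ∀ x ∈ omegaZ Q, a * x * a⁻¹ ∈ omegaZ Q :=
    fun a x hx => omegaZ_conj Q a (hnorm a) x hx
  -- the subgroup `W`
  have hWc : ∀ a ∈ W, ∀ b ∈ W, a * b = b * a := by
    intro a ha b hb
    obtain ⟨⟨hc⟩⟩ := hW.1
    exact congrArg Subtype.val (hc ⟨a, ha⟩ ⟨b, hb⟩)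
  have hW2 : ∀ a ∈ W, a * a = 1 := by
    intro a ha
    rw [← pow_two]; exact hW.2 a ha
  have hdW' : ∀ x, x ∈ W ↔ d * x * d⁻¹ ∈ W := Subgroup.mem_normalizer_iff.1 hdW
  have hfpfW : ∀ x ∈ W, d * x * d⁻¹ = x → x = 1 := by
    intro x hx hfix
    have hmem : x ∈ W ⊓ Subgroup.centralizer {d} := by
      refine Subgroup.mem_inf.2 ⟨hx, ?_⟩
      rw [Subgroup.mem_centralizer_iff]
      intro t ht
      rw [Set.mem_singleton_iff] at ht
      rw [ht]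
      calc d * x = (d * x * d⁻¹) * d := (inv_mul_cancel_right _ _).symm
        _ = x * d := by rw [hfix]
    rw [hfpf] at hmem
    exact Subgroup.mem_bot.1 hmem
  obtain ⟨w₀, hw₀, hw₀1⟩ : ∃ w ∈ W, w ≠ 1 := by
    by_contra hcon
    push_neg at hcon
    exact hW1 ((Subgroup.eq_bot_iff_forall _).2 hcon)
  have hw₁ : d * w₀ * d⁻¹ ∈ W := (hdW' w₀).1 hw₀
  have hw₁1 : d * w₀ * d⁻¹ ≠ 1 := by
    intro hh
    apply hw₀1
    have e : w₀ = d⁻¹ * (d * w₀ * d⁻¹) * d := by group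
    rw [e, hh]; group
  have hw₁0 : d * w₀ * d⁻¹ ≠ w₀ := fun hh => hw₀1 (hfpfW w₀ hw₀ hh)
  have hW4 : Nat.card W = 4 :=
    card4 W (big W hWc hW2) w₀ _ hw₀ (hW2 w₀ hw₀) hw₀1 hw₁ hw₁1 hw₁0
  -- a central involution of `W ⊔ Q`
  have hWp : IsPGroup 2 W := by
    intro g
    refine ⟨1, ?_⟩
    apply Subtype.ext
    have hg := hW2 g g.2
    simpa [pow_two] using hg
  have hT : IsPGroup 2 (W ⊔ Q : Subgroup G) := IsPGroup.to_sup_of_normal_right hWp hQ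
  have hTne : (W ⊔ Q : Subgroup G) ≠ ⊥ := by
    intro hbot
    apply hw₀1
    have hmem : w₀ ∈ (W ⊔ Q : Subgroup G) := (le_sup_left : W ≤ W ⊔ Q) hw₀
    rw [hbot] at hmem
    exact Subgroup.mem_bot.1 hmem
  obtain ⟨z, hzT, hz1, hz2, hzc⟩ := exists_central 2 (W ⊔ Q) hT hTne
  have hzz : z * z = 1 := by rw [← pow_two]; exact hz2
  have hzQ : z ∈ Q := by
    apply hchar
    rw [Subgroup.mem_centralizer_iff]
    intro x hx
    exact hzc x ((le_sup_right : Q ≤ W ⊔ Q) hx)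
  have hzE : z ∈ omegaZ Q := ⟨hzQ, hzz, fun p hp => hzc p ((le_sup_right : Q ≤ W ⊔ Q) hp)⟩
  have hzW : z ∈ W := adjoin_mem big W hWc hW2 hW4 z hzz
    (fun a ha => hzc a ((le_sup_left : W ≤ W ⊔ Q) ha))
  have hz' : d * z * d⁻¹ ∈ W := (hdW' z).1 hzW
  have hz'E : d * z * d⁻¹ ∈ omegaZ Q := hEn d z hzE
  have hz'1 : d * z * d⁻¹ ≠ 1 := by
    intro hh
    apply hz1
    have e : z = d⁻¹ * (d * z * d⁻¹) * d := by group
    rw [e, hh]; group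
  have hz'z : d * z * d⁻¹ ≠ z := fun hh => hz1 (hfpfW z hzW hh)
  have hWE : W ≤ omegaZ Q := by
    intro w hw
    rcases enum4 W hW2 hW4 z hzW hz1 _ hz' hz'1 hz'z w hw with h | h | h | h
    · rw [h]; exact Subgroup.one_mem _
    · rw [h]; exact hzE
    · rw [h]; exact hz'E
    · rw [h]; exact Subgroup.mul_mem _ hzE hz'E
  have hEle : Nat.card (omegaZ Q) ≤ 4 := big (omegaZ Q) hEc hE2
  have hWEeq : W = omegaZ Q := Subgroup.eq_of_le_of_card_ge hWE (by rw [hW4]; exact hEle)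
  have hE4 : Nat.card (omegaZ Q) = 4 := by rw [← hWEeq]; exact hW4
  have hfpfE : ∀ x ∈ omegaZ Q, d * x * d⁻¹ = x → x = 1 := by
    intro x hx; exact hfpfW x (by rw [hWEeq]; exact hx)
  -- the element of order 6
  obtain ⟨x₆, hx₆⟩ := hsix
  obtain ⟨u₀, hu₀def⟩ : ∃ u₀, u₀ = x₆ ^ 2 := ⟨_, rfl⟩
  obtain ⟨t, htdef⟩ : ∃ t, t = x₆ ^ 3 := ⟨_, rfl⟩
  have hx6 : x₆ ^ 6 = 1 := by rw [← hx₆]; exact pow_orderOf_eq_one x₆
  have hu₀3 : u₀ ^ 3 = 1 := by rw [hu₀def, ← pow_mul]; exact hx6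
  have hu₀1 : u₀ ≠ 1 := by
    rw [hu₀def]; exact pow_ne_one_of_lt_orderOf (by norm_num) (by rw [hx₆]; norm_num)
  have htt : t * t = 1 := by rw [htdef, ← pow_add]; exact hx6
  have ht1 : t ≠ 1 := by
    rw [htdef]; exact pow_ne_one_of_lt_orderOf (by norm_num) (by rw [hx₆]; norm_num)
  have htu : t * u₀ = u₀ * t := by
    rw [htdef, hu₀def]; exact ((Commute.refl x₆).pow_pow 3 2).eq
  have hu₀E : ∀ e ∈ omegaZ Q, u₀ * e * u₀⁻¹ = e := by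
    by_contra hcon
    have hu₀fpf : ∀ e ∈ omegaZ Q, u₀ * e * u₀⁻¹ = e → e = 1 := by
      intro e he hfix
      by_contra he1
      exact hcon (dich (omegaZ Q) hE2 hE4 u₀ (hEn u₀) 3 hu₀3 (by norm_num) e he he1 hfix)
    have htE : ∀ x ∈ omegaZ Q, t * x * t⁻¹ ∈ omegaZ Q := hEn t
    obtain ⟨f, hf, hf1, hft⟩ : ∃ f ∈ omegaZ Q, f ≠ 1 ∧ t * f * t⁻¹ = f := by
      by_cases hzt : t * z * t⁻¹ = z
      · exact ⟨z, hzE, hz1, hzt⟩
      · refine ⟨z * (t * z * t⁻¹), Subgroup.mul_mem _ hzE (htE z hzE), ?_, ?_⟩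
        · intro hh
          exact hzt (mul_left_cancel (hh.trans hzz.symm))
        · calc t * (z * (t * z * t⁻¹)) * t⁻¹
              = (t * z * t⁻¹) * ((t * t) * z * (t * t)⁻¹) := by group
            _ = (t * z * t⁻¹) * z := by rw [htt]; group
            _ = z * (t * z * t⁻¹) := hEc _ (htE z hzE) _ hzE
    have hf₂E : u₀ * f * u₀⁻¹ ∈ omegaZ Q := hEn u₀ f hf
    have hf₂1 : u₀ * f * u₀⁻¹ ≠ 1 := by
      intro hh
      apply hf1
      have e : f = u₀⁻¹ * (u₀ * f * u₀⁻¹) * u₀ := by group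
      rw [e, hh]; group
    have hf₂f : u₀ * f * u₀⁻¹ ≠ f := fun hh => hf1 (hu₀fpf f hf hh)
    have hf₂t : t * (u₀ * f * u₀⁻¹) * t⁻¹ = u₀ * f * u₀⁻¹ := by
      rw [conj_comm t u₀ f htu, hft]
    have htcent : ∀ e ∈ omegaZ Q, e * t = t * e := by
      intro e he
      have hfix : t * e * t⁻¹ = e := by
        rcases enum4 (omegaZ Q) hE2 hE4 f hf hf1 _ hf₂E hf₂1 hf₂f e he with h | h | h | h
        · rw [h]; group
        · rw [h]; exact hft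
        · rw [h]; exact hf₂t
        · rw [h]
          calc t * (f * (u₀ * f * u₀⁻¹)) * t⁻¹
              = (t * f * t⁻¹) * (t * (u₀ * f * u₀⁻¹) * t⁻¹) := by group
            _ = f * (u₀ * f * u₀⁻¹) := by rw [hft, hf₂t]
      calc e * t = (t * e * t⁻¹) * t := by rw [hfix]
        _ = t * e := inv_mul_cancel_right _ _
    have htE' : t ∈ omegaZ Q := adjoin_mem big (omegaZ Q) hEc hE2 hE4 t htt htcent
    apply ht1
    apply hu₀fpf t htE'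
    rw [← htu]; exact mul_inv_cancel_right _ _
  -- Sylow 3-subgroup containing `d`
  obtain ⟨D, hD⟩ := hd.exists_le_sylow
  have hdD : d ∈ (D : Subgroup G) := hD (Subgroup.mem_zpowers d)
  have hu₀p : IsPGroup 3 (Subgroup.zpowers u₀) := by
    refine IsPGroup.of_card (n := 1) ?_
    rw [Nat.card_zpowers, pow_one]; exact orderOf_eq_prime hu₀3 hu₀1
  obtain ⟨c, -, hc⟩ := Cfsg.Agent.Helper10.exists_conj_mem_sylow_of_le (⊤ : Subgroup G) D le_top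
    (Subgroup.zpowers u₀) hu₀p le_top
  have hu'D : c⁻¹ * u₀ * c ∈ (D : Subgroup G) := hc u₀ (Subgroup.mem_zpowers u₀)
  have hu₀3' : u₀ * u₀ * u₀ = 1 := by rw [← pow_three']; exact hu₀3
  have hu'3 : (c⁻¹ * u₀ * c) ^ 3 = 1 := by
    rw [pow_three']
    calc (c⁻¹ * u₀ * c) * (c⁻¹ * u₀ * c) * (c⁻¹ * u₀ * c)
        = c⁻¹ * (u₀ * u₀ * u₀) * c := by group
      _ = 1 := by rw [hu₀3']; group
  have hu'1 : c⁻¹ * u₀ * c ≠ 1 := by
    intro hh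
    apply hu₀1
    have e : u₀ = c * (c⁻¹ * u₀ * c) * c⁻¹ := by group
    rw [e, hh]; group
  have hu'E : ∀ e ∈ omegaZ Q, (c⁻¹ * u₀ * c) * e * (c⁻¹ * u₀ * c)⁻¹ = e := by
    intro e he
    have h1 := hu₀E (c * e * c⁻¹) (hEn c e he)
    calc (c⁻¹ * u₀ * c) * e * (c⁻¹ * u₀ * c)⁻¹
        = c⁻¹ * (u₀ * (c * e * c⁻¹) * u₀⁻¹) * c := by group
      _ = c⁻¹ * (c * e * c⁻¹) * c := by rw [h1]
      _ = e := by group
  have hDp : IsPGroup 3 (D : Subgroup G) := D.isPGroup'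
  have hDne : (D : Subgroup G) ≠ ⊥ := by
    intro hbot
    apply hd1
    have hmem := hdD
    rw [hbot] at hmem
    exact Subgroup.mem_bot.1 hmem
  obtain ⟨z₀, hz₀D, hz₀1, hz₀3, hz₀c⟩ := exists_central 3 (D : Subgroup G) hDp hDne
  by_cases hcase : ∀ e ∈ omegaZ Q, z₀ * e * z₀⁻¹ = e
  · obtain ⟨n, hn⟩ := (IsPGroup.iff_orderOf.1 hDp) ⟨d, hdD⟩
    have hn' : orderOf d = 3 ^ n :=
      (Subgroup.orderOf_coe (⟨d, hdD⟩ : (D : Subgroup G))).trans hn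
    exact finish Q hQ hnorm hchar hrank hE4 z₀ d hz₀1 hz₀3 hcase n hn' hfpfE (hz₀c d hdD).symm
  · have hz₀fpf : ∀ e ∈ omegaZ Q, z₀ * e * z₀⁻¹ = e → e = 1 := by
      intro e he hfix
      by_contra he1
      exact hcase (dich (omegaZ Q) hE2 hE4 z₀ (hEn z₀) 3 hz₀3 (by norm_num) e he he1 hfix)
    have ho : orderOf z₀ = 3 ^ 1 := by rw [pow_one]; exact orderOf_eq_prime hz₀3 hz₀1
    exact finish Q hQ hnorm hchar hrank hE4 (c⁻¹ * u₀ * c) z₀ hu'1 hu'3 hu'E 1 ho hz₀fpf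
      (hz₀c _ hu'D)

end Cfsg.Agent.Helper10.R3
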