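import Mathlib
import Cfsg.Agent.S0144
import Cfsg.Agent.S1991
import Cfsg.Agent.Helper23.PSolv

/-!
helper10: groups all of whose Sylow subgroups are self-normalizing are of prime-power order.
-/

set_option autoImplicit false

namespace Cfsg.Agent.Helper10

open scoped commutatorElement

/-- A nontrivial finite solvable group has a normal subgroup of prime index. -/
theorem exists_normal_prime_index_of_solvable {G : Type*} [Group G] [Finite G]
    [Group.IsSolvable G] [Nontrivial G] : ∃ M : Subgroup G, M.Normal ∧ M.index.Prime := by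
  classical
  have hc : _root_.commutator G ≠ ⊤ := (Group.IsSolvable.commutator_lt_top_of_nontrivial G).ne
  let 𝒮 : Set (Subgroup G) := {M | _root_.commutator G ≤ M ∧ M ≠ ⊤}
  have hfin : 𝒮.Finite := Set.toFinite _
  obtain ⟨M, -, hM⟩ := hfin.exists_le_maximal (a := _root_.commutator G) ⟨le_rfl, hc⟩
  obtain ⟨⟨hcM, hMtop⟩, hmax⟩ := hM
  have hMn : M.Normal := by
    constructor
    intro m hm g
    have h1 : g * m * g⁻¹ = ⁅g, m⁆ * m := by rw [commutatorElement_def]; group
    rw [h1]
    refine M.mul_mem (hcM ?_) hm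
    rw [_root_.commutator_def]
    exact Subgroup.commutator_mem_commutator (Subgroup.mem_top g) (Subgroup.mem_top m)
  refine ⟨M, hMn, ?_⟩
  haveI := hMn
  letI : CommGroup (G ⧸ M) :=
    { (inferInstance : Group (G ⧸ M)) with
      mul_comm := by
        intro a b
        induction a using QuotientGroup.induction_on with
        | H a =>
        induction b using QuotientGroup.induction_on with
        | H b =>
        rw [← QuotientGroup.mk_mul, ← QuotientGroup.mk_mul]
        apply QuotientGroup.eq.2
        apply hcM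
        have h1 : (a * b)⁻¹ * (b * a) = ⁅b⁻¹, a⁻¹⁆ := by
          rw [commutatorElement_def]; group
        rw [h1, _root_.commutator_def]
        exact Subgroup.commutator_mem_commutator (Subgroup.mem_top _) (Subgroup.mem_top _) }
  haveI : Nontrivial (G ⧸ M) := by
    rw [QuotientGroup.nontrivial_iff]
    exact hMtop
  haveI : IsSimpleGroup (G ⧸ M) := by
    constructor
    intro H _
    by_cases hH : H.comap (QuotientGroup.mk' M) = ⊤
    · right
      rw [← Subgroup.map_comap_eq_self_of_surjective (QuotientGroup.mk'_surjective M) H, hH,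
        Subgroup.map_top_of_surjective _ (QuotientGroup.mk'_surjective M)]
    · left
      have hle : M ≤ H.comap (QuotientGroup.mk' M) := by
        intro x hx
        rw [Subgroup.mem_comap]
        have : (QuotientGroup.mk' M) x = 1 := (QuotientGroup.eq_one_iff x).2 hx
        rw [this]; exact H.one_mem
      have h2 := hmax (show H.comap (QuotientGroup.mk' M) ∈ 𝒮 from ⟨hcM.trans hle, hH⟩) hle
      rw [eq_bot_iff]
      intro y hy
      obtain ⟨x, rfl⟩ := QuotientGroup.mk'_surjective M y
      rw [Subgroup.mem_bot]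
      exact (QuotientGroup.eq_one_iff x).2 (h2 hy)
  have := IsSimpleGroup.prime_card (α := G ⧸ M)
  rwa [← Subgroup.index_eq_card] at this

/-- If all Sylow subgroups are self-normalizing and there is a normal subgroup of prime index
`r`, the group is an `r`-group. -/
theorem isPGroup_of_selfnorm_of_index {G : Type*} [Group G] [Finite G]
    (h : ∀ q : ℕ, q.Prime → q ∣ Nat.card G → ∀ Q : Sylow q G,
      Subgroup.normalizer ((Q : Subgroup G) : Set G) = Q)
    (M : Subgroup G) [hMn : M.Normal] {r : ℕ} (hr : r.Prime) (hM : M.index = r) :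
    IsPGroup r G := by
  by_contra hnot
  have hcard : Nat.card G ≠ 0 := Nat.card_pos.ne'
  have hex : ∃ q : ℕ, q.Prime ∧ q ∣ Nat.card G ∧ q ≠ r := by
    by_contra hno
    apply hnot
    have hpow := Nat.eq_prime_pow_of_unique_prime_dvd (p := r) hcard (fun {d} hd hdvd => by
      by_contra hne
      exact hno ⟨d, hd, hdvd, hne⟩)
    haveI : Fact r.Prime := ⟨hr⟩
    exact IsPGroup.of_card hpow
  obtain ⟨q, hq, hqdvd, hqr⟩ := hex
  haveI : Fact q.Prime := ⟨hq⟩
  obtain ⟨Q⟩ : Nonempty (Sylow q G) := inferInstance
  have hNQ := h q hq hqdvd Q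
  have hQM : (Q : Subgroup G) ≤ M := by
    intro x hx
    obtain ⟨k, hk⟩ := Q.2 ⟨x, hx⟩
    have hk' : x ^ q ^ k = 1 := by
      have := congrArg Subtype.val hk
      simpa using this
    have hcop : (q ^ k).Coprime r := Nat.Coprime.pow_left k ((Nat.coprime_primes hq hr).2 hqr)
    refine Cfsg.Agent.Helper23.mem_of_pow_mem_of_coprime hcop (by rw [hk']; exact M.one_mem) ?_
    rw [← hM]
    exact Subgroup.pow_index_mem M x
  have hfr := Sylow.normalizer_sup_eq_top (Q.subtype hQM)
  rw [Sylow.coe_subtype, Subgroup.map_subgroupOf_eq_of_le hQM, hNQ, sup_eq_right.2 hQM] at hfr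
  rw [hfr, Subgroup.index_top] at hM
  exact hr.one_lt.ne hM

/-- **Glauberman**: a finite group all of whose Sylow subgroups are self-normalizing has
prime-power order. -/
theorem isPGroup_of_selfnorm {G : Type*} [Group G] [Finite G]
    (h : ∀ q : ℕ, q.Prime → q ∣ Nat.card G → ∀ Q : Sylow q G,
      Subgroup.normalizer ((Q : Subgroup G) : Set G) = Q) :
    ∃ q : ℕ, q.Prime ∧ IsPGroup q G := by
  have hcard : Nat.card G ≠ 0 := Nat.card_pos.ne'
  by_cases hbig : ∃ p : ℕ, p.Prime ∧ 5 ≤ p ∧ p ∣ Nat.card G
  · obtain ⟨p, hp, hp5, hpdvd⟩ := hbig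
    haveI : Fact p.Prime := ⟨hp⟩
    obtain ⟨S⟩ : Nonempty (Sylow p G) := inferInstance
    have hS : (S : Subgroup G) ≠ ⊥ := Sylow.ne_bot_of_dvd_card S hpdvd
    have hNS := h p hp hpdvd S
    have hN : ∀ g ∈ Subgroup.normalizer (((S : Subgroup G) : Subgroup G) : Set G),
        (orderOf g).Coprime p → g ∈ Subgroup.centralizer (((S : Subgroup G) : Subgroup G) : Set G) := by
      intro g hg hcop
      rw [hNS] at hg
      obtain ⟨k, hk⟩ := (IsPGroup.iff_orderOf.1 S.2) ⟨g, hg⟩
      rw [Subgroup.orderOf_mk] at hk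
      rw [hk] at hcop
      have hk0 : k = 0 := by
        by_contra hk0
        have : p ∣ Nat.gcd (p ^ k) p := Nat.dvd_gcd (dvd_pow_self p hk0) dvd_rfl
        rw [hcop] at this
        exact hp.one_lt.ne' (Nat.dvd_one.1 this)
      rw [hk0, pow_zero, orderOf_eq_one_iff] at hk
      rw [hk]
      exact Subgroup.one_mem _
    obtain ⟨N, hNn, hNidx⟩ := Cfsg.Agent.S1991.result hp5 S hS hN
    haveI := hNn
    exact ⟨p, hp, isPGroup_of_selfnorm_of_index h N hp hNidx⟩
  · push Not at hbig
    -- the order is `2^a * 3^b`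
    have h23 : ∀ d : ℕ, d.Prime → d ∣ Nat.card G → d = 2 ∨ d = 3 := by
      intro d hd hdvd
      have hlt : d < 5 := by
        by_contra hge
        exact hbig d hd (not_lt.1 hge) hdvd
      have h2 := hd.two_le
      interval_cases d
      · left; rfl
      · right; rfl
      · exact absurd hd (by decide)
    set n := Nat.card G with hn
    have hsplit : 2 ^ n.factorization 2 * (n / 2 ^ n.factorization 2) = n :=
      Nat.ordProj_mul_ordCompl_eq_self n 2
    have hm0 : n / 2 ^ n.factorization 2 ≠ 0 := by
      intro h0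
      rw [h0, mul_zero] at hsplit
      exact hcard hsplit.symm
    have hm : n / 2 ^ n.factorization 2 = 3 ^ (n / 2 ^ n.factorization 2).primeFactorsList.length := by
      apply Nat.eq_prime_pow_of_unique_prime_dvd hm0
      intro d hd hdvd
      have hdn : d ∣ n := hdvd.trans (Nat.ordCompl_dvd n 2)
      rcases h23 d hd hdn with rfl | rfl
      · exact absurd hdvd (Nat.not_dvd_ordCompl Nat.prime_two hcard)
      · rfl
    have hcard2 : Nat.card G = 2 ^ n.factorization 2 *
        3 ^ (n / 2 ^ n.factorization 2).primeFactorsList.length := by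
      rw [← hm]; exact hsplit.symm
    haveI : Group.IsSolvable G := Cfsg.Agent.S0144.result 2 3 _ _ Nat.prime_two Nat.prime_three hcard2
    by_cases hnt : Nontrivial G
    · obtain ⟨M, hMn, hMidx⟩ := exists_normal_prime_index_of_solvable (G := G)
      haveI := hMn
      exact ⟨M.index, hMidx, isPGroup_of_selfnorm_of_index h M hMidx rfl⟩
    · rw [not_nontrivial_iff_subsingleton] at hnt
      refine ⟨2, Nat.prime_two, ?_⟩
      haveI : Fact (Nat.Prime 2) := ⟨Nat.prime_two⟩
      exact IsPGroup.of_card (n := 0) (by rw [pow_zero]; exact Nat.card_unique)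

end Cfsg.Agent.Helper10
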